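import Cfsg.Agent.AutOrth.SimClass
import Cfsg.Agent.AutOrthField.Action
import Cfsg.Agent.Classical.Orth.Diag
import Cfsg.Agent.Classical.Orth.ReflClass
import Cfsg.Agent.OrthGeo.Parity

/-! Linear algebra of similarities that square to scalars. -/

set_option autoImplicit false
set_option linter.unusedSectionVars false

namespace CfsgLib.AutOrthGraph

open Cfsg Cfsg.Geo CfsgLib.OrthGeo CfsgLib.AutOrth Module
open CfsgLib.Classical.Orth (classHom classHom_fst residual fixedSpace mem_residual mem_fixedSpace finrank_residual_add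
  sub_mem_residual exists_q_eq_on)
open scoped Matrix MatrixGroups

variable {ι : Type} [Fintype ι] [DecidableEq ι] {F : Type*} [Field F] {Q : (ι → F) → F}
variable (hQ : IsNondegenerateQuadraticForm Q)

/-- The Gram matrix of the polar form. -/
noncomputable def gramMat : Matrix ι ι F := LinearMap.toMatrix₂' F (bform hQ)

include hQ

lemma det_gramMat_ne_zero : (gramMat hQ).det ≠ 0 := by
  rw [gramMat, ← Matrix.nondegenerate_iff_det_ne_zero, ← Matrix.separatingLeft_iff_nondegenerate_aux]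
  exact (LinearMap.separatingLeft_toMatrix₂'_iff).2 (b_nondeg hQ).1
where
  Matrix.separatingLeft_iff_nondegenerate_aux {M : Matrix ι ι F} : M.SeparatingLeft ↔ M.Nondegenerate :=
    ⟨fun h => Matrix.nondegenerate_of_det_ne_zero ((Matrix.separatingLeft_iff_det_ne_zero).1 h), fun h => h.1⟩

lemma gram_relation {d : GL ι F} {c : F} (hd : ∀ v, Q ((d : Matrix ι ι F) *ᵥ v) = c * Q v) :
    (d : Matrix ι ι F)ᵀ * gramMat hQ * (d : Matrix ι ι F) = c • gramMat hQ := by
  have e : (bform hQ).compl₁₂ (Matrix.toLin' (d : Matrix ι ι F)) (Matrix.toLin' (d : Matrix ι ι F)) = c • bform hQ := by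
    refine LinearMap.ext fun x => LinearMap.ext fun y => ?_
    rw [LinearMap.compl₁₂_apply, Matrix.toLin'_apply, Matrix.toLin'_apply, similarity_b hQ hd]
    rfl
  have h := congrArg (LinearMap.toMatrix₂' F) e
  rw [LinearMap.toMatrix₂'_compl₁₂, LinearMap.toMatrix'_toLin', map_smul] at h
  exact h

theorem det_sq_of_similarity {d : GL ι F} {c : F} (hd : ∀ v, Q ((d : Matrix ι ι F) *ᵥ v) = c * Q v) :
    (d : Matrix ι ι F).det ^ 2 = c ^ Fintype.card ι := by
  have h := congrArg Matrix.det (gram_relation hQ hd)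
  rw [Matrix.det_mul, Matrix.det_mul, Matrix.det_transpose, Matrix.det_smul] at h
  exact mul_right_cancel₀ (det_gramMat_ne_zero hQ) (by linear_combination h)

/-- A similarity of multiplier `c` squaring to `-c` is proper. -/
theorem det_of_sq_eq_neg (h2 : (2 : F) ≠ 0) {k : ℕ} (hk : Fintype.card ι = 2 * k) {d : GL ι F} {c : F} (hc : c ≠ 0)
    (hd : ∀ v, Q ((d : Matrix ι ι F) *ᵥ v) = c * Q v)
    (hsq : (d : Matrix ι ι F) * (d : Matrix ι ι F) = (-c) • 1) : (d : Matrix ι ι F).det = c ^ k := by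
  let f : F →+* AlgebraicClosure F := algebraMap F (AlgebraicClosure F)
  obtain ⟨r, hr⟩ := IsAlgClosed.exists_pow_nat_eq (f c) (n := 2) two_pos
  set M := (d : Matrix ι ι F).map f with hM
  set B := (gramMat hQ).map f with hB
  have hmap : ∀ (a : F) (X : Matrix ι ι F), (a • X).map f = f a • X.map f := fun a X => by ext i j; simp
  have h1 : Mᵀ * B * M = f c • B := by
    have h := congrArg (fun X => X.map f) (gram_relation hQ hd)
    simp only [hmap, Matrix.map_mul] at h
    rwa [Matrix.transpose_map] at h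
  have h3 : M * M = (-f c) • 1 := by
    have h := congrArg (fun X => X.map f) hsq
    simp only [hmap, Matrix.map_mul, map_neg] at h
    rwa [Matrix.map_one _ (map_zero f) (map_one f)] at h
  have hB0 : B.det ≠ 0 := by
    rw [hB, ← RingHom.mapMatrix_apply, ← RingHom.map_det]
    exact (map_ne_zero f).2 (det_gramMat_ne_zero hQ)
  have e : (r • 1 + M)ᵀ * B * M = r • (B * (M + r • 1)) := by
    rw [Matrix.transpose_add, Matrix.transpose_smul, Matrix.transpose_one, add_mul, add_mul, h1, mul_add, ← hr,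
      smul_add, smul_mul_assoc, smul_mul_assoc, Matrix.one_mul, Matrix.mul_smul, Matrix.mul_one, smul_smul, sq]
  have hne : (r • (1 : Matrix ι ι (AlgebraicClosure F)) + M).det ≠ 0 := by
    intro h0
    have e2 : (r • 1 + M) * (r • 1 - M) = (f c + f c) • (1 : Matrix ι ι (AlgebraicClosure F)) := by
      rw [add_mul, mul_sub, mul_sub, h3, smul_mul_assoc, smul_mul_assoc, Matrix.one_mul, Matrix.one_mul,
        Matrix.mul_smul, Matrix.mul_one, smul_smul, ← sq, hr]
      module
    have h := congrArg Matrix.det e2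
    rw [Matrix.det_mul, h0, zero_mul, Matrix.det_smul, Matrix.det_one, mul_one] at h
    have h' := eq_zero_of_pow_eq_zero h.symm
    rw [← two_mul] at h'
    rcases mul_eq_zero.1 h' with h' | h'
    · exact h2 (f.injective (by rw [map_ofNat, map_zero]; exact h'))
    · exact hc (f.injective (by rw [map_zero]; exact h'))
  have h := congrArg Matrix.det e
  rw [Matrix.det_mul, Matrix.det_mul, Matrix.det_transpose, Matrix.det_smul, Matrix.det_mul, add_comm M, hk, pow_mul,
    hr, hM, ← RingHom.mapMatrix_apply, ← RingHom.map_det, ← map_pow] at h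
  exact f.injective (mul_left_cancel₀ (mul_ne_zero hne hB0) (by rw [hM, ← RingHom.mapMatrix_apply]; linear_combination h))

omit hQ in
/-- The determinant of a root of an irreducible `X² - ν`. -/
theorem det_of_sq_nonsquare {k : ℕ} (hk : Fintype.card ι = 2 * k) {M : Matrix ι ι F} {ν : F}
    (hν : ¬ IsSquare ν) (hM : M * M = ν • 1) : M.det = (-ν) ^ k := by
  open Polynomial in
  have hmon : (X ^ 2 - C ν : F[X]).Monic := monic_X_pow_sub_C _ two_ne_zero
  open Polynomial in
  have hirr : Irreducible (X ^ 2 - C ν : F[X]) := by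
    refine irreducible_of_degree_le_three_of_not_isRoot ?_ fun x hx => hν ⟨x, ?_⟩
    · rw [natDegree_X_pow_sub_C]; simp
    · simp only [IsRoot.def, eval_sub, eval_pow, eval_X, eval_C, sub_eq_zero] at hx
      rw [← hx, sq]
  open Polynomial in
  have hprod : M.charpoly * (-M).charpoly = (X ^ 2 - C ν) ^ (2 * k) := by
    have hc : ∀ N : Matrix ι ι F, Matrix.charmatrix N = (X : F[X]) • 1 - N.map C := fun N => by
      rw [Matrix.charmatrix, Matrix.scalar_apply, Matrix.smul_one_eq_diagonal]; rfl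
    have hMM : M.map C * M.map C = (C ν : F[X]) • (1 : Matrix ι ι F[X]) := by
      rw [← Matrix.map_mul, hM]
      ext i j
      simp [Matrix.one_apply, apply_ite (C : F → F[X])]
    have hneg : (-M).map C = -(M.map (C : F → F[X])) := by ext i j; simp
    rw [Matrix.charpoly, Matrix.charpoly, ← Matrix.det_mul, hc, hc, hneg, sub_neg_eq_add, sub_mul, mul_add, mul_add,
      hMM, smul_mul_assoc, smul_mul_assoc, Matrix.one_mul, Matrix.one_mul, Matrix.mul_smul, Matrix.mul_one, smul_smul,
      ← sq, add_sub_add_comm]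
    rw [show (X : F[X]) ^ 2 • (1 : Matrix ι ι F[X]) - X • M.map C + (X • M.map C - C ν • 1) = (X ^ 2 - C ν) • 1 by
      rw [sub_smul]; abel, Matrix.det_smul, Matrix.det_one, mul_one, hk]
  open Polynomial in
  have hchar : M.charpoly = (X ^ 2 - C ν : F[X]) ^ k := by
    obtain ⟨j, -, hj⟩ := (dvd_prime_pow hirr.prime _).1 (Dvd.intro _ hprod)
    have he := eq_of_monic_of_associated M.charpoly_monic (hmon.pow j) hj
    have hdeg := congrArg natDegree he
    rw [M.charpoly_natDegree_eq_dim, natDegree_pow, natDegree_X_pow_sub_C, hk] at hdeg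
    rw [he, show j = k by omega]
  rw [Matrix.det_eq_sign_charpoly_coeff, hchar, Polynomial.coeff_zero_eq_eval_zero, hk, pow_mul, neg_one_sq, one_pow,
    one_mul]
  simp

/-- Minus the identity, as an isometry. -/
noncomputable def negIso : isometryGroup F Q :=
  ⟨Matrix.GeneralLinearGroup.scalar ι (-1), mem_isometryGroup.2 fun v => by
    rw [AutOrthField.scalar_mulVec, hQ.smul, Units.val_neg, Units.val_one, neg_one_sq, one_mul]⟩

variable [Finite F]

lemma det_eq_one_iff (h2 : (2 : F) ≠ 0) (hexc : ¬ (Nat.card F = 2 ∧ Fintype.card ι = 4)) (h : isometryGroup F Q) :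
    ((h : GL ι F) : Matrix ι ι F).det = 1 ↔ (classHom hQ hexc h).1 = 1 := by
  rw [Classical.Orth.det_eq_neg_one_pow hQ hexc h.2, classHom_fst]
  constructor
  · intro he
    by_contra hne
    rw [(Nat.not_even_iff_odd.1 hne).neg_one_pow] at he
    exact h2 (by linear_combination -he)
  · exact fun he => he.neg_one_pow

lemma classHom_negIso_fst (h2 : (2 : F) ≠ 0) (hexc : ¬ (Nat.card F = 2 ∧ Fintype.card ι = 4))
    (he : Even (Fintype.card ι)) : (classHom hQ hexc (negIso hQ)).1 = 1 := by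
  rw [← det_eq_one_iff hQ h2]
  show (Matrix.GeneralLinearGroup.scalar ι (-1 : Fˣ) : Matrix ι ι F).det = 1
  rw [Matrix.GeneralLinearGroup.coe_scalar, Matrix.scalar_apply, Matrix.det_diagonal, Finset.prod_const,
    Finset.card_univ, Units.val_neg, Units.val_one, he.neg_one_pow]

omit [Finite F] in
/-- An eigenspace of an involutory isometry for a sign has trivial radical. -/
lemma eigen_nondeg (h2 : (2 : F) ≠ 0) {h : GL ι F} (hh : h ∈ isometryGroup F Q) (hsq : h * h = 1) {s : F}
    (hs : s * s = 1) {x : ι → F} (hx : (h : Matrix ι ι F) *ᵥ x = s • x) (hx0 : x ≠ 0) :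
    ∃ y, (h : Matrix ι ι F) *ᵥ y = s • y ∧ bform hQ x y ≠ 0 := by
  obtain ⟨-, y, hy⟩ := hQ.nondegenerate x hx0
  refine ⟨y + s • ((h : Matrix ι ι F) *ᵥ y), ?_, ?_⟩
  · rw [Matrix.mulVec_add, Matrix.mulVec_smul, Matrix.mulVec_mulVec, ← Units.val_mul, hsq, Units.val_one,
      Matrix.one_mulVec, smul_add, smul_smul, hs, one_smul, add_comm]
  · have e := isometry_b hQ hh x y
    rw [hx, map_smul, LinearMap.smul_apply, smul_eq_mul] at e
    rw [map_add, map_smul, smul_eq_mul, e, ← two_mul]
    exact mul_ne_zero h2 hy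

/-- An involutory isometry has an eigenvector pair of orthogonal vectors with values one and `ε`. -/
theorem exists_eigen_pair (h2 : (2 : F) ≠ 0) (hn : 6 ≤ Fintype.card ι) {h : GL ι F} (hh : h ∈ isometryGroup F Q)
    (hsq : h * h = 1) {ε : F} (hε : ε ≠ 0) :
    ∃ (s : F) (u v : ι → F), s * s = 1 ∧ (h : Matrix ι ι F) *ᵥ u = s • u ∧ (h : Matrix ι ι F) *ᵥ v = s • v ∧
      Q u = 1 ∧ Q v = ε ∧ bform hQ u v = 0 := by
  have main : ∀ (s : F) (T : Submodule F (ι → F)), s * s = 1 → (∀ x, x ∈ T ↔ (h : Matrix ι ι F) *ᵥ x = s • x) →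
      3 ≤ finrank F T → ∃ (s : F) (u v : ι → F), s * s = 1 ∧ (h : Matrix ι ι F) *ᵥ u = s • u ∧
        (h : Matrix ι ι F) *ᵥ v = s • v ∧ Q u = 1 ∧ Q v = ε ∧ bform hQ u v = 0 := by
    intro s T hs hT h3
    have hTn : ∀ x ∈ T, x ≠ 0 → ∃ y ∈ T, bform hQ x y ≠ 0 := fun x hx hx0 => by
      obtain ⟨y, hy, hy'⟩ := eigen_nondeg hQ h2 hh hsq hs ((hT x).1 hx) hx0
      exact ⟨y, (hT y).2 hy, hy'⟩
    obtain ⟨u, huT, hu⟩ := exists_q_eq_on hQ h2 (by omega) hTn (one_ne_zero (α := F))
    set P := perp hQ (Submodule.span F {u}) with hP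
    have hdim : 2 ≤ finrank F ↥(T ⊓ P) := by
      have h1 := Submodule.finrank_sup_add_finrank_inf_eq T P
      have h4 := finrank_perp_add hQ (Submodule.span F {u})
      have h5 := Submodule.finrank_le (T ⊔ P)
      rw [finrank_span_singleton (fun h0 => one_ne_zero (α := F) (by rw [← hu, h0, q_zero hQ]))] at h4
      rw [finrank_fintype_fun_eq_card] at h5
      rw [← hP] at h4
      omega
    obtain ⟨v, ⟨hvT, hvP⟩, hv⟩ := exists_q_eq_on hQ h2 hdim (fun x ⟨hx, hxP⟩ hx0 => by
      obtain ⟨y, hy, hy'⟩ := hTn x hx hx0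
      rw [SetLike.mem_coe, hP, mem_perp_span_singleton hQ] at hxP
      refine ⟨y - (bform hQ u y / 2) • u, ⟨T.sub_mem hy (T.smul_mem _ huT), ?_⟩, ?_⟩
      · rw [SetLike.mem_coe, hP, mem_perp_span_singleton hQ, map_sub, map_smul, b_self hQ, hu, smul_eq_mul, mul_one,
          div_mul_cancel₀ _ h2, sub_self]
      · rwa [map_sub, map_smul, b_symm hQ x u, hxP, smul_zero, sub_zero]) hε
    rw [SetLike.mem_coe, hP, mem_perp_span_singleton hQ] at hvP
    exact ⟨s, u, v, hs, (hT u).1 huT, (hT v).1 hvT, hu, hv, hvP⟩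
  have hres : ∀ x, x ∈ residual h ↔ (h : Matrix ι ι F) *ᵥ x = (-1 : F) • x := by
    intro x
    constructor
    · intro hx
      obtain ⟨y, rfl⟩ := mem_residual.1 hx
      rw [Matrix.mulVec_sub, Matrix.mulVec_mulVec, ← Units.val_mul, hsq, Units.val_one, Matrix.one_mulVec]
      module
    · intro hx
      refine mem_residual.2 ⟨(2 : F)⁻¹ • x, ?_⟩
      rw [Matrix.mulVec_smul, hx, ← smul_sub, neg_one_smul, sub_neg_eq_add, ← two_smul F x, smul_smul,
        inv_mul_cancel₀ h2, one_smul]
  by_cases hd : 3 ≤ finrank F (residual h)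
  · exact main (-1) _ (by ring) hres hd
  · have := finrank_residual_add h
    exact main 1 (fixedSpace h) (by ring) (fun x => by rw [mem_fixedSpace, one_smul]) (by omega)

omit [Finite F] in
/-- A similarity interchanging the eigenspaces of an involution makes their dimensions equal. -/
theorem finrank_residual_of_swap (h2 : (2 : F) ≠ 0) {k : ℕ} (hk : Fintype.card ι = 2 * k) {h z : GL ι F}
    (hsq : h * h = 1) (hz : ∀ x, (z : Matrix ι ι F) *ᵥ ((h : Matrix ι ι F) *ᵥ x) =
      -((h : Matrix ι ι F) *ᵥ ((z : Matrix ι ι F) *ᵥ x))) : finrank F (residual h) = k := by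
  have h1 : imgSub z (fixedSpace h) ≤ residual h := by
    intro y hy
    obtain ⟨x, hx, rfl⟩ := mem_imgSub.1 hy
    have e := hz x
    rw [mem_fixedSpace.1 hx] at e
    refine mem_residual.2 ⟨(2 : F)⁻¹ • ((z : Matrix ι ι F) *ᵥ x), ?_⟩
    rw [Matrix.mulVec_smul, ← smul_sub, show (h : Matrix ι ι F) *ᵥ ((z : Matrix ι ι F) *ᵥ x) = -((z : Matrix ι ι F) *ᵥ x)
      from neg_eq_iff_eq_neg.1 e.symm, sub_neg_eq_add, ← two_smul F, smul_smul, inv_mul_cancel₀ h2, one_smul]
  have h3 : imgSub z (residual h) ≤ fixedSpace h := by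
    intro y hy
    obtain ⟨x, hx, rfl⟩ := mem_imgSub.1 hy
    obtain ⟨w, rfl⟩ := mem_residual.1 hx
    have e := hz (w - (h : Matrix ι ι F) *ᵥ w)
    rw [Matrix.mulVec_sub (h : Matrix ι ι F), Matrix.mulVec_mulVec w, ← Units.val_mul, hsq, Units.val_one,
      Matrix.one_mulVec, ← neg_sub w, Matrix.mulVec_neg] at e
    exact mem_fixedSpace.2 (neg_injective e).symm
  have h4 := Submodule.finrank_mono h1
  have h5 := Submodule.finrank_mono h3
  rw [finrank_imgSub] at h4 h5
  have := finrank_residual_add h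
  omega

omit [Finite F] in
/-- A self-adjoint similarity. -/
lemma selfadjoint_b {g : GL ι F} {μ : F} (hμ : μ ≠ 0) (hg : ∀ v, Q ((g : Matrix ι ι F) *ᵥ v) = μ * Q v)
    (hsq : ∀ v, (g : Matrix ι ι F) *ᵥ ((g : Matrix ι ι F) *ᵥ v) = μ • v) (x y : ι → F) :
    bform hQ x ((g : Matrix ι ι F) *ᵥ y) = bform hQ ((g : Matrix ι ι F) *ᵥ x) y := by
  have h := similarity_b hQ hg x ((g : Matrix ι ι F) *ᵥ y)
  rw [hsq, map_smul, smul_eq_mul] at h
  exact mul_left_cancel₀ hμ h.symm

/-- A self-adjoint similarity with non-square multiplier has a non-singular vector orthogonal to its image. -/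
theorem exists_orth_image (h2 : (2 : F) ≠ 0) (hn : 5 ≤ Fintype.card ι) {g : GL ι F} {μ : F} (hμ : ¬ IsSquare μ)
    (hg : ∀ v, Q ((g : Matrix ι ι F) *ᵥ v) = μ * Q v)
    (hsq : ∀ v, (g : Matrix ι ι F) *ᵥ ((g : Matrix ι ι F) *ᵥ v) = μ • v) :
    ∃ w, Q w ≠ 0 ∧ bform hQ w ((g : Matrix ι ι F) *ᵥ w) = 0 := by
  classical
  have hμ0 : μ ≠ 0 := fun h => hμ (h ▸ IsSquare.zero)
  set G := fun v => (g : Matrix ι ι F) *ᵥ v with hG
  have hadj : ∀ x y, bform hQ x (G y) = bform hQ (G x) y := selfadjoint_b hQ hμ0 hg hsq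
  have hadd : ∀ x y, G (x + y) = G x + G y := fun x y => Matrix.mulVec_add ..
  have hsmul : ∀ (a : F) x, G (a • x) = a • G x := fun a x => Matrix.mulVec_smul ..
  set t := fun v => bform hQ v (G v) with ht
  suffices h : ∃ z, z ≠ 0 ∧ t z = 0 by
    obtain ⟨z, hz0, hz⟩ := h
    by_cases hQz : Q z ≠ 0
    · exact ⟨z, hQz, hz⟩
    rw [not_not] at hQz
    have hli : G z ∉ Submodule.span F {z} := by
      intro hm
      obtain ⟨c, hc⟩ := Submodule.mem_span_singleton.1 hm
      have h1 := congrArg G hc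
      rw [hsmul, ← hc, smul_smul, show G (c • z) = G (G z) by rw [hc], show G (G z) = μ • z from hsq z] at h1
      exact hμ ⟨c, (smul_left_injective F hz0 h1).symm⟩
    obtain ⟨y, hy1, hy2⟩ : ∃ y, bform hQ z y = 0 ∧ bform hQ (G z) y ≠ 0 := by
      by_contra h
      push Not at h
      refine hli ?_
      rw [← perp_perp hQ (Submodule.span F {z})]
      refine (mem_perp' hQ).2 fun w hw => h w ((mem_perp_span_singleton hQ).1 hw)
    by_contra hno
    push Not at hno
    have key : ∀ y, bform hQ z y = 0 → bform hQ (G z) y ≠ 0 → Q y = 0 := by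
      intro y hy1 hy2
      by_contra hy
      set a := -(t y) / (2 * bform hQ (G z) y)
      refine hno (y + a • z) ?_ ?_
      · rwa [q_add hQ, q_smul hQ, hQz, map_smul, smul_eq_mul, b_symm hQ y z, hy1, mul_zero, mul_zero, add_zero, add_zero]
      · show bform hQ (y + a • z) (G (y + a • z)) = 0
        rw [hadd, hsmul]
        simp only [map_add, map_smul, LinearMap.add_apply, LinearMap.smul_apply, smul_eq_mul]
        rw [show bform hQ z (G z) = 0 from hz, hadj z y, b_symm hQ y (G z)]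
        simp only [a, t]
        field_simp
        ring
    have h1 := key y hy1 hy2
    set N := perp hQ (Submodule.span F {z} ⊔ Submodule.span F {G z}) with hN
    have hTS : IsTotallySingularQuad Q N := by
      intro n hn
      rw [hN, perp_sup hQ, Submodule.mem_inf, mem_perp_span_singleton hQ, mem_perp_span_singleton hQ] at hn
      have h3 := key (y + n) (by rw [map_add, hy1, hn.1, add_zero]) (by rwa [map_add, hn.2, add_zero])
      have h4 := key (y - n) (by rw [map_sub, hy1, hn.1, sub_zero]) (by rwa [map_sub, hn.2, sub_zero])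
      rw [q_add hQ, h1] at h3
      rw [q_sub hQ, h1] at h4
      exact mul_left_cancel₀ h2 (by linear_combination h3 + h4)
    have h5 := two_mul_finrank_le hQ hTS
    have h6 := finrank_perp_add hQ (Submodule.span F {z} ⊔ Submodule.span F {G z})
    have h7 := Submodule.finrank_add_le_finrank_add_finrank (Submodule.span F {z}) (Submodule.span F {G z})
    rw [finrank_span_singleton hz0] at h7
    have h8 : finrank F (Submodule.span F ({G z} : Set (ι → F))) ≤ 1 := (finrank_span_le_card _).trans (by simp)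
    rw [← hN] at h6
    omega
  have hperp : ∀ S : Finset (ι → F), S.card ≤ 4 → ∃ v, v ≠ 0 ∧ ∀ s ∈ S, bform hQ s v = 0 := by
    intro S hS
    obtain ⟨v, hv, hv0⟩ : ∃ v ∈ perp hQ (Submodule.span F (S : Set (ι → F))), v ≠ 0 := by
      refine Submodule.exists_mem_ne_zero_of_ne_bot fun h => ?_
      have h1 := finrank_perp_add hQ (Submodule.span F (S : Set (ι → F)))
      have h3 := finrank_span_finset_le_card (R := F) S
      rw [h, finrank_bot] at h1
      rw [Set.finrank] at h3
      omega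
    exact ⟨v, hv0, fun s hs => hv s (Submodule.subset_span hs)⟩
  obtain ⟨v₁, hv₁, -⟩ := hperp ∅ (by simp)
  obtain ⟨v₂, hv₂, h₂⟩ := hperp {v₁, G v₁} (Finset.card_le_two.trans (by norm_num))
  obtain ⟨v₃, hv₃, h₃⟩ := hperp {v₁, G v₁, v₂, G v₂} Finset.card_le_four
  simp only [Finset.mem_insert, Finset.mem_singleton, forall_eq_or_imp, forall_eq] at h₂ h₃
  by_cases t1 : t v₁ = 0
  · exact ⟨v₁, hv₁, t1⟩
  by_cases t2 : t v₂ = 0
  · exact ⟨v₂, hv₂, t2⟩
  by_cases t3 : t v₃ = 0
  · exact ⟨v₃, hv₃, t3⟩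
  have := Fintype.ofFinite F
  have hodd : Fintype.card F % 2 = 1 := FiniteField.odd_card_of_char_ne_two (fun h => h2 (by
    have := ringChar.Nat.cast_ringChar (R := F)
    rw [h] at this
    exact_mod_cast this))
  obtain ⟨α, β, hαβ⟩ := FiniteField.exists_root_sum_quadratic
    (f := Polynomial.C (t v₁) * Polynomial.X ^ 2)
    (g := Polynomial.C (t v₂) * Polynomial.X ^ 2 + Polynomial.C (t v₃))
    (Polynomial.degree_C_mul_X_pow 2 t1)
    (by rw [Polynomial.degree_add_eq_left_of_degree_lt] <;>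
        simp [Polynomial.degree_C_mul_X_pow 2 t2, Polynomial.degree_C t3]) hodd
  simp only [Polynomial.eval_add, Polynomial.eval_mul, Polynomial.eval_C, Polynomial.eval_pow,
    Polynomial.eval_X] at hαβ
  refine ⟨α • v₁ + β • v₂ + v₃, fun h0 => t3 ?_, ?_⟩
  · have e : v₃ = -(α • v₁ + β • v₂) := eq_neg_of_add_eq_zero_right h0
    show bform hQ v₃ (G v₃) = 0
    conv_lhs => arg 1; rw [e]
    simp only [map_neg, map_add, map_smul, LinearMap.neg_apply, LinearMap.add_apply, LinearMap.smul_apply, hadj, h₃.2.1,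
      h₃.2.2.2, smul_zero, add_zero, neg_zero]
  · show bform hQ _ (G _) = 0
    simp only [hadd, hsmul, map_add, map_smul, LinearMap.add_apply, LinearMap.smul_apply, smul_eq_mul]
    have a12 : bform hQ v₁ (G v₂) = 0 := by rw [hadj]; exact h₂.2
    have a21 : bform hQ v₂ (G v₁) = 0 := by rw [b_symm hQ]; exact h₂.2
    have a13 : bform hQ v₁ (G v₃) = 0 := by rw [hadj]; exact h₃.2.1
    have a31 : bform hQ v₃ (G v₁) = 0 := by rw [b_symm hQ]; exact h₃.2.1
    have a23 : bform hQ v₂ (G v₃) = 0 := by rw [hadj]; exact h₃.2.2.2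
    have a32 : bform hQ v₃ (G v₂) = 0 := by rw [b_symm hQ]; exact h₃.2.2.2
    rw [a12, a21, a13, a31, a23, a32]
    linear_combination hαβ

end CfsgLib.AutOrthGraph
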