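import Cfsg.Prelude.Def_LieTypeDatum

/-! Splitting of a class: the count as an index. -/

set_option autoImplicit false

namespace CfsgLib.AutOrthGraph

open Cfsg

variable {X : Type*} [Group X]

/-- The number of `K`-classes in an `H`-class is the index in `H` of `K` times the centraliser. -/
theorem splitClassCount_eq_relIndex (H K : Subgroup X) [hK : K.Normal] (hKH : K ≤ H) (x : X) :
    splitClassCount H K x = (Subgroup.centralizer {x} ⊓ H ⊔ K).relIndex H := by
  set L : Subgroup X := Subgroup.centralizer {x} ⊓ H ⊔ K with hL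
  let cls : H → Quot fun y z : {y : X // IsConjUnder H x y} => IsConjUnder K y.1 z.1 :=
    fun h => Quot.mk _ ⟨(h : X) * x * (h : X)⁻¹, h, h.2, rfl⟩
  have hsurj : Function.Surjective cls := by
    intro q
    obtain ⟨⟨_, h, hh, rfl⟩, rfl⟩ := Quot.mk_surjective q
    exact ⟨⟨h, hh⟩, rfl⟩
  have hiff : ∀ h h' : H, cls h = cls h' ↔ (h : X)⁻¹ * h' ∈ L := by
    intro h h'
    constructor
    · intro e
      have key : ∀ y z : {y : X // IsConjUnder H x y}, IsConjUnder K y.1 z.1 →
          ∀ g : H, y.1 = g * x * (g : X)⁻¹ → ∀ g' : H, z.1 = g' * x * (g' : X)⁻¹ → (g : X)⁻¹ * g' ∈ L := by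
        rintro y z ⟨c, hc, hz⟩ g hy g' hg'
        rw [hz, hy] at hg'
        have hcent : (g' : X)⁻¹ * c * g ∈ Subgroup.centralizer {x} := by
          rw [Subgroup.mem_centralizer_singleton_iff]
          have h1 : (g' : X)⁻¹ * (c * (g * x * (g : X)⁻¹) * c⁻¹) * (c * g) = (g' : X)⁻¹ * (g' * x * (g' : X)⁻¹) * (c * g) := by
            rw [hg']
          calc (g' : X)⁻¹ * c * g * x = (g' : X)⁻¹ * (c * (g * x * (g : X)⁻¹) * c⁻¹) * (c * g) := by group
            _ = _ := h1
            _ = x * ((g' : X)⁻¹ * c * g) := by group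
        have hmem : (g' : X)⁻¹ * c * g ∈ L :=
          Subgroup.mem_sup_left ⟨hcent, H.mul_mem (H.mul_mem (H.inv_mem g'.2) (hKH hc)) g.2⟩
        have hc' : (g : X)⁻¹ * c⁻¹ * g ∈ L := by
          refine Subgroup.mem_sup_right ?_
          have := hK.conj_mem c⁻¹ (inv_mem hc) (g : X)⁻¹
          rwa [inv_inv] at this
        have := mul_mem hmem hc'
        rw [show (g' : X)⁻¹ * c * g * ((g : X)⁻¹ * c⁻¹ * g) = ((g : X)⁻¹ * g')⁻¹ by group] at this
        exact (inv_mem_iff (H := L)).1 this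
      have hequiv : Equivalence fun y z : {y : X // IsConjUnder H x y} => IsConjUnder K y.1 z.1 :=
        ⟨fun y => ⟨1, one_mem _, by group⟩,
          fun {y z} ⟨c, hc, hz⟩ => ⟨c⁻¹, inv_mem hc, by rw [hz]; group⟩,
          fun {y z w} ⟨c, hc, hz⟩ ⟨d, hd, hw⟩ => ⟨d * c, mul_mem hd hc, by rw [hw, hz]; group⟩⟩
      exact key _ _ (Equivalence.quot_mk_eq_iff hequiv _ _ |>.1 e) h rfl h' rfl
    · intro hm
      rw [hL, Subgroup.mem_sup_of_normal_right] at hm
      obtain ⟨c, ⟨hc, -⟩, k, hk, e⟩ := hm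
      have hh' : (h' : X) = (h : X) * c * k := by rw [mul_assoc, e]; group
      refine (Quot.sound ⟨(h : X) * c * k * c⁻¹ * (h : X)⁻¹, ?_, ?_⟩)
      · have := hK.conj_mem k hk ((h : X) * c)
        rwa [show (h : X) * c * k * ((h : X) * c)⁻¹ = (h : X) * c * k * c⁻¹ * (h : X)⁻¹ by group] at this
      · have hcx : c⁻¹ * x * c = x := by
          rw [mul_assoc, ← Subgroup.mem_centralizer_singleton_iff.1 hc, inv_mul_cancel_left]
        show (h' : X) * x * (h' : X)⁻¹ = _
        calc (h' : X) * x * (h' : X)⁻¹ = (h : X) * c * k * x * k⁻¹ * c⁻¹ * (h : X)⁻¹ := by rw [hh']; group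
          _ = (h : X) * c * k * (c⁻¹ * x * c) * k⁻¹ * c⁻¹ * (h : X)⁻¹ := by rw [hcx]
          _ = _ := by group
  rw [Subgroup.relIndex, Subgroup.index]
  refine (Nat.card_congr (Equiv.ofBijective (Quotient.lift (s := QuotientGroup.leftRel (L.subgroupOf H)) cls ?_) ⟨?_, ?_⟩)).symm
  · intro h h' e
    rw [hiff]
    exact (QuotientGroup.leftRel_apply (s := L.subgroupOf H)).1 e
  · intro p q
    refine Quotient.inductionOn₂ p q fun h h' e => ?_
    exact Quotient.sound ((QuotientGroup.leftRel_apply (s := L.subgroupOf H)).2 ((hiff h h').1 e))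
  · intro z
    obtain ⟨h, rfl⟩ := hsurj z
    exact ⟨Quotient.mk _ h, rfl⟩

end CfsgLib.AutOrthGraph
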