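import Cfsg.Agent.AutOrthGraph.Algebra
import Cfsg.Agent.AutOrthGraph.Count

/-! The splitting of the class of an involutory improper similarity. -/

set_option autoImplicit false
set_option linter.unusedSectionVars false

namespace CfsgLib.AutOrthGraph

open Cfsg Cfsg.Geo CfsgLib.OrthGeo CfsgLib.AutOrth Module
open CfsgLib.AutOrthField (Sim scalarSim mult mult_spec mult_eq mult_scalarSim scalar_mulVec coe_scalarSim)
open CfsgLib.Classical.Orth (classHom refl coe_refl classHom_refl_fst classHom_refl_snd not_exc_of_two_ne_zero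
  exists_not_isSquare isSquare_mul_iff isSquare_mul_of_not ker_classHom reflection_smul)
open scoped Matrix MatrixGroups

/-- The inner automorphisms form a normal subgroup. -/
theorem inn_normal {X : Type*} [Group X] : (Inn X).Normal :=
  ⟨fun x hx β => by obtain ⟨y, rfl⟩ := hx; exact ⟨β y, MulEquiv.ext fun z => by simp⟩⟩

variable {ι : Type} [Fintype ι] [DecidableEq ι] [Nonempty ι] {F : Type*} [Field F] [Finite F] {Q : (ι → F) → F}

/-- An isometry as a similarity. -/
abbrev isoSim (Q : (ι → F) → F) : isometryGroup F Q →* Sim Q := Subgroup.inclusion (isometry_le_similarity Q)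

/-- A similarity with determinant the `k`-th power of the multiplier. -/
def Proper (hne : ∃ v, Q v ≠ 0) (k : ℕ) (g : Sim Q) : Prop :=
  ((g : GL ι F) : Matrix ι ι F).det = (mult hne g : F) ^ k

variable (hQ : IsNondegenerateQuadraticForm Q) (h2 : (2 : F) ≠ 0) {k : ℕ} (hk : Fintype.card ι = 2 * k)
  (h5 : 5 ≤ Fintype.card ι) {hne : ∃ v, Q v ≠ 0}
include hQ h2 hk h5

local notation "cl" => classHom hQ (not_exc_of_two_ne_zero (ι := ι) h2)

lemma det_eq_or (g : Sim Q) : Proper hne k g ∨ ((g : GL ι F) : Matrix ι ι F).det = -((mult hne g : F) ^ k) := by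
  have h := det_sq_of_similarity hQ (d := (g : GL ι F)) (mult_spec hne g)
  rw [hk, mul_comm, pow_mul] at h
  exact sq_eq_sq_iff_eq_or_eq_neg.1 h

lemma det_mul_sim (g g' : Sim Q) : ((((g * g' : Sim Q)) : GL ι F) : Matrix ι ι F).det =
    ((g : GL ι F) : Matrix ι ι F).det * ((g' : GL ι F) : Matrix ι ι F).det := by
  rw [Subgroup.coe_mul, Units.val_mul, Matrix.det_mul]

lemma proper_mul_iff {g g' : Sim Q} (hg : Proper hne k g) : Proper hne k (g * g') ↔ Proper hne k g' := by
  rw [Proper, det_mul_sim hQ h2 hk h5, hg, map_mul, Units.val_mul, mul_pow,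
    mul_right_inj' (pow_ne_zero _ (Units.ne_zero _))]
  rfl

lemma proper_scalar (u : Fˣ) : Proper hne k (scalarSim hQ u) := by
  rw [Proper, mult_scalarSim, coe_scalarSim, Matrix.GeneralLinearGroup.coe_scalar, Matrix.scalar_apply,
    Matrix.det_diagonal, Finset.prod_const, Finset.card_univ, Units.val_pow_eq_pow_val, hk, pow_mul]

lemma mult_isoSim (h : isometryGroup F Q) : mult hne (isoSim Q h) = 1 :=
  Units.ext (mult_eq hne _ _ fun v => by rw [Units.val_one, one_mul]; exact mem_isometryGroup.1 h.2 v)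

lemma proper_isoSim_iff (h : isometryGroup F Q) : Proper hne k (isoSim Q h) ↔ (cl h).1 = 1 := by
  rw [Proper, mult_isoSim hQ h2 hk h5, Units.val_one, one_pow]
  exact det_eq_one_iff hQ h2 _ h

lemma exists_iso_of_isSquare {g : Sim Q} (hg : IsSquare (mult hne g : F)) :
    ∃ (r : Fˣ) (h : isometryGroup F Q), r ^ 2 = mult hne g ∧ g = scalarSim hQ r * isoSim Q h ∧
      (Proper hne k g ↔ (cl h).1 = 1) := by
  obtain ⟨r, hr⟩ := (isSquare_units_iff).1 hg
  have hr' : r ^ 2 = mult hne g := by rw [sq, hr]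
  have hmem : (((scalarSim hQ r)⁻¹ * g : Sim Q) : GL ι F) ∈ isometryGroup F Q := mem_isometryGroup.2 fun v => by
    rw [mult_spec hne, map_mul, map_inv, mult_scalarSim, hr', inv_mul_cancel, Units.val_one, one_mul]
  refine ⟨r, ⟨_, hmem⟩, hr', (mul_inv_cancel_left _ _).symm, ?_⟩
  have e := proper_mul_iff hQ h2 hk h5 (g := scalarSim hQ r) (g' := (scalarSim hQ r)⁻¹ * g)
    (proper_scalar hQ h2 hk h5 r (hne := hne))
  rw [mul_inv_cancel_left] at e
  exact e.trans (proper_isoSim_iff hQ h2 hk h5 ⟨_, hmem⟩)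

lemma exists_scalar_of_conjS_eq {g g' : Sim Q} (h : conjS Q g = conjS Q g') : ∃ u : Fˣ, g = scalarSim hQ u * g' := by
  obtain ⟨u, hu⟩ := AutOrthField.exists_scalar_of_conjS_eq_one hQ h5 (g := g * g'⁻¹) (by rw [map_mul, map_inv, h, mul_inv_cancel])
  exact ⟨u, mul_inv_eq_iff_eq_mul.1 hu⟩

lemma scalar_comm (u : Fˣ) (g : Sim Q) : g * scalarSim hQ u = scalarSim hQ u * g := by
  refine Subtype.ext (gl_ext fun x => ?_)
  simp only [Subgroup.coe_mul, Units.val_mul, ← Matrix.mulVec_mulVec, coe_scalarSim, scalar_mulVec, Matrix.mulVec_smul]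

/-- The inner isometries. -/
lemma conjS_isoSim_mem_inn_iff (h : isometryGroup F Q) :
    conjS Q (isoSim Q h) ∈ Inn (POmega F Q) ↔ cl h = 1 ∨ cl h = cl (negIso hQ) := by
  constructor
  · rintro ⟨x, hx⟩
    obtain ⟨w, rfl⟩ := QuotientGroup.mk_surjective x
    rw [← conjS_omega] at hx
    obtain ⟨u, hu⟩ := exists_scalar_of_conjS_eq hQ h2 hk h5 hx.symm
    have hw : cl (w : isometryGroup F Q) = 1 := by rw [← MonoidHom.mem_ker, ker_classHom]; exact w.2
    have hne' : ∃ v, Q v ≠ 0 := by
      by_contra h'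
      push Not at h'
      obtain ⟨i⟩ := ‹Nonempty ι›
      obtain ⟨⟨y, hy⟩, -⟩ := hQ.nondegenerate (Pi.single i 1) (by simp)
      exact hy (by simp [QuadraticMap.polar, h'])
    have hu2 : (u : F) ^ 2 = 1 := by
      have e := congrArg (mult hne') hu
      rw [map_mul, mult_scalarSim, mult_isoSim hQ h2 hk h5, show omegaToS Q w = isoSim Q w from rfl,
        mult_isoSim hQ h2 hk h5, mul_one] at e
      rw [← Units.val_pow_eq_pow_val, ← e, Units.val_one]
    rcases sq_eq_one_iff.1 hu2 with h1 | h1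
    · left
      obtain rfl : h = w := Subtype.ext (by
        have e' := congrArg Subtype.val hu
        simp only [show u = 1 from Units.ext h1, map_one, one_mul] at e'
        exact e')
      exact hw
    · right
      obtain rfl : h = negIso hQ * w := Subtype.ext (by
        have e' := congrArg Subtype.val hu
        rw [show u = -1 from Units.ext (by simpa using h1)] at e'
        exact e')
      rw [map_mul, hw, mul_one]
  · have main : ∀ w : isometryGroup F Q, cl w = 1 → conjS Q (isoSim Q w) ∈ Inn (POmega F Q) := by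
      intro w hw
      rw [← MonoidHom.mem_ker, ker_classHom] at hw
      exact ⟨_, (conjS_omega ⟨w, hw⟩).symm⟩
    rintro (h1 | h1)
    · exact main h h1
    · have e := main (negIso hQ * h) (by
        rw [map_mul, h1]
        exact (by decide : ∀ x : Multiplicative (ZMod 2) × Multiplicative (ZMod 2), x * x = 1) _)
      rw [map_mul, map_mul, show isoSim Q (negIso hQ) = scalarSim hQ (-1) from rfl,
        AutOrthField.conjS_scalarSim, one_mul] at e
      exact e

/-- An improper isometry and a similarity with non-square multiplier do not commute up to sign. -/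
lemma not_commute_pair {h : isometryGroup F Q} (hh : (cl h).1 ≠ 1) {z : Sim Q} (hz : ¬ IsSquare (mult hne z : F))
    {u : Fˣ} (e : z * isoSim Q h = scalarSim hQ u * (isoSim Q h * z))
    (hor : cl (negIso hQ) = 1 ∨ (Even k ∧ h * h = 1)) : False := by
  have hu : (u : F) ^ 2 = 1 := by
    have e' := congrArg (mult hne) e
    simp only [map_mul, mult_scalarSim, mult_isoSim hQ h2 hk h5, one_mul, mul_one] at e'
    rw [← Units.val_pow_eq_pow_val, ← Units.val_one]
    exact congrArg Units.val (mul_eq_right.1 e'.symm)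
  have hd := mult_spec hne z
  have hsq : sqChar F (mult hne z) = Multiplicative.ofAdd 1 :=
    (by decide : ∀ x : Multiplicative (ZMod 2), x ≠ 1 → x = Multiplicative.ofAdd 1) _ fun h' => hz (sqChar_eq_one_iff.1 h')
  have htw : ∀ h' : isometryGroup F Q, (h' : GL ι F) = (z : GL ι F) * (h : GL ι F) * (z : GL ι F)⁻¹ → cl h' ≠ cl h := by
    intro h' e'
    rw [classHom_conj hQ _ hd h h' e', hsq]
    exact (by decide : ∀ x : Cls, x.1 ≠ 1 → tw (Multiplicative.ofAdd 1) x ≠ x) _ hh
  have e1 := congrArg Subtype.val e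
  simp only [Subgroup.coe_mul] at e1
  rcases sq_eq_one_iff.1 hu with h1 | h1
  · refine htw h ?_ rfl
    rw [show u = 1 from Units.ext h1, map_one, OneMemClass.coe_one, one_mul] at e1
    rw [eq_mul_inv_iff_mul_eq]
    exact e1.symm
  · rw [show u = -1 from Units.ext (by simpa using h1)] at e1
    rcases hor with hor | ⟨hev, hh2⟩
    · refine htw (negIso hQ * h) ?_ (by rw [map_mul, hor, one_mul])
      rw [eq_mul_inv_iff_mul_eq, Subgroup.coe_mul, mul_assoc]
      exact e1.symm
    · refine hh ?_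
      rw [Classical.Orth.classHom_fst]
      refine (finrank_residual_of_swap hQ h2 hk (z := (z : GL ι F)) (congrArg Subtype.val hh2) fun x => ?_).symm ▸ hev
      have e2 := congrArg (fun y : GL ι F => (y : Matrix ι ι F) *ᵥ x) e1
      simp only [Units.val_mul, ← Matrix.mulVec_mulVec, coe_scalarSim, scalar_mulVec, Units.val_neg, Units.val_one,
        neg_one_smul] at e2
      exact e2

variable {g : Sim Q} (hg : ¬ Proper hne k g) (hg2 : conjS Q g * conjS Q g = 1)
include hg hg2

lemma sq_eq_mult : g * g = scalarSim hQ (mult hne g) := by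
  rw [← map_mul] at hg2
  obtain ⟨u, hu⟩ := AutOrthField.exists_scalar_of_conjS_eq_one hQ h5 hg2
  have e := congrArg (mult hne) hu
  rw [map_mul, mult_scalarSim, ← sq] at e
  rcases sq_eq_sq_iff_eq_or_eq_neg.1 (congrArg Units.val e : (mult hne g : F) ^ 2 = (u : F) ^ 2) with h | h
  · rw [hu, Units.ext h]
  · refine absurd ?_ hg
    refine det_of_sq_eq_neg hQ h2 hk (Units.ne_zero _) (mult_spec hne g) ?_
    have e' := congrArg (fun z : Sim Q => ((z : GL ι F) : Matrix ι ι F)) hu
    rw [show ((g : GL ι F) : Matrix ι ι F) * ((g : GL ι F) : Matrix ι ι F) = _ from e', coe_scalarSim,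
      Matrix.GeneralLinearGroup.coe_scalar, h, neg_neg, Matrix.scalar_apply, Matrix.smul_one_eq_diagonal]

lemma sq_mulVec (v : ι → F) : ((g : GL ι F) : Matrix ι ι F) *ᵥ (((g : GL ι F) : Matrix ι ι F) *ᵥ v) = (mult hne g : F) • v := by
  have e := congrArg (fun z : Sim Q => ((z : GL ι F) : Matrix ι ι F) *ᵥ v) (sq_eq_mult hQ h2 hk h5 hg hg2)
  simp only [coe_scalarSim, scalar_mulVec, Subgroup.coe_mul, Units.val_mul, ← Matrix.mulVec_mulVec] at e
  exact e

lemma even_imp_isSquare (he : Even k) : IsSquare (mult hne g : F) := by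
  by_contra hns
  refine hg ?_
  show _ = _
  rw [det_of_sq_nonsquare hk hns (Matrix.ext_of_mulVec_single fun j => by
    rw [← Matrix.mulVec_mulVec, sq_mulVec hQ h2 hk h5 hg hg2, Matrix.smul_mulVec, Matrix.one_mulVec]), he.neg_pow]

/-- Proper similarities centralising the automorphism have square multiplier. -/
lemma isSquare_of_commute (hor : cl (negIso hQ) = 1 ∨ Even k) {z : Sim Q} (hz : Proper hne k z)
    (hc : conjS Q z * conjS Q g = conjS Q g * conjS Q z) : IsSquare (mult hne z : F) := by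
  by_contra hzs
  rw [← map_mul, ← map_mul] at hc
  obtain ⟨u, hu⟩ := exists_scalar_of_conjS_eq hQ h2 hk h5 hc
  by_cases hgs : IsSquare (mult hne g : F)
  · obtain ⟨r, h, hr, e, hp⟩ := exists_iso_of_isSquare hQ h2 hk h5 hgs
    refine not_commute_pair hQ h2 hk h5 (fun h' => hg (hp.2 h')) hzs (u := u) ?_ ?_
    · refine mul_left_cancel (a := scalarSim hQ r) ?_
      calc scalarSim hQ r * (z * isoSim Q h) = z * g := by rw [e, ← mul_assoc, ← scalar_comm hQ h2 hk h5 r z, mul_assoc]
        _ = scalarSim hQ u * (g * z) := hu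
        _ = scalarSim hQ r * (scalarSim hQ u * (isoSim Q h * z)) := by
          rw [e, mul_assoc (scalarSim hQ r), ← mul_assoc, scalar_comm hQ h2 hk h5 r, mul_assoc]
    · refine hor.imp id fun hev => ⟨hev, ?_⟩
      have e' : isoSim Q (h * h) = isoSim Q 1 := by
        have h1 := sq_eq_mult hQ h2 hk h5 hg hg2
        rw [← hr, sq, map_mul (AutOrthField.scalarSim hQ), e, mul_assoc, ← mul_assoc (isoSim Q h),
          scalar_comm hQ h2 hk h5 r, mul_assoc] at h1
        rw [map_one]
        rw [← map_mul] at h1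
        exact mul_left_cancel (a := scalarSim hQ r) (b := isoSim Q (h * h)) (c := 1)
          (by rw [mul_one]; exact mul_left_cancel (a := scalarSim hQ r) h1)
      exact Subgroup.inclusion_injective _ e'
  · rcases hor with hor | hev
    swap
    · exact hgs (even_imp_isSquare hQ h2 hk h5 hg hg2 hev)
    have hzg : IsSquare (mult hne (z * g) : F) := by
      rw [map_mul, Units.val_mul]; exact isSquare_mul_of_not hzs hgs
    obtain ⟨r, h, hr, e, hp⟩ := exists_iso_of_isSquare hQ h2 hk h5 hzg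
    refine not_commute_pair hQ h2 hk h5 (h := h) (fun h' => hg ?_) hgs (u := u⁻¹) ?_ (Or.inl hor)
    · exact (proper_mul_iff hQ h2 hk h5 hz).1 (hp.2 h')
    · refine mul_left_cancel (a := scalarSim hQ r) ?_
      have hgz : g * z = scalarSim hQ u⁻¹ * (z * g) := by
        rw [hu, ← mul_assoc, ← map_mul, inv_mul_cancel, map_one, one_mul]
      calc scalarSim hQ r * (g * isoSim Q h) = g * (z * g) := by
            rw [e, ← mul_assoc, ← scalar_comm hQ h2 hk h5 r g, mul_assoc]
        _ = scalarSim hQ u⁻¹ * (z * g) * g := by rw [← mul_assoc, hgz]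
        _ = scalarSim hQ r * (scalarSim hQ u⁻¹ * (isoSim Q h * g)) := by
          rw [e]
          simp only [← mul_assoc]
          rw [scalar_comm hQ h2 hk h5 r]

/-- A spinor-nontrivial proper isometry centralising the automorphism. -/
theorem exists_centralising :
    ∃ c : isometryGroup F Q, (cl c).1 = 1 ∧ (cl c).2 ≠ 1 ∧
      conjS Q (isoSim Q c) * conjS Q g = conjS Q g * conjS Q (isoSim Q c) := by
  have hsq := sq_mulVec hQ h2 hk h5 hg hg2
  set μ := (mult hne g : F)
  set G : Matrix ι ι F := ((g : GL ι F) : Matrix ι ι F)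
  obtain ⟨u, v, hu, hv, huv, hns, hperm⟩ : ∃ (u v : ι → F), Q u ≠ 0 ∧ Q v ≠ 0 ∧ bform hQ u v = 0 ∧
      ¬ IsSquare (Q u * Q v) ∧ ∃ r s : F, r ≠ 0 ∧ s ≠ 0 ∧
        ((G *ᵥ u = r • u ∧ G *ᵥ v = s • v) ∨ (G *ᵥ u = r • v ∧ G *ᵥ v = s • u)) := by
    by_cases hgs : IsSquare μ
    · obtain ⟨r, h, hr, e, hp⟩ := exists_iso_of_isSquare hQ h2 hk h5 hgs
      obtain ⟨ε, hε⟩ := exists_not_isSquare (F := F) h2
      have hε0 : ε ≠ 0 := by rintro rfl; exact hε IsSquare.zero
      have hG : ∀ x, G *ᵥ x = (r : F) • ((h : GL ι F) : Matrix ι ι F) *ᵥ x := fun x => by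
        show ((g : GL ι F) : Matrix ι ι F) *ᵥ x = _
        rw [e, Subgroup.coe_mul, Units.val_mul, ← Matrix.mulVec_mulVec, coe_scalarSim, scalar_mulVec]
        rfl
      have hh2 : (h : GL ι F) * (h : GL ι F) = 1 := gl_ext fun x => by
        have e1 := hsq x
        rw [hG, hG, Matrix.mulVec_smul, smul_smul, show μ = ((r : F) * r) by
          rw [← sq, ← Units.val_pow_eq_pow_val, hr]] at e1
        rw [Units.val_one, Matrix.one_mulVec, Units.val_mul, ← Matrix.mulVec_mulVec]
        exact smul_right_injective (ι → F) (mul_ne_zero r.ne_zero r.ne_zero) e1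
      obtain ⟨s, u, v, hs, hu, hv, hQu, hQv, huv⟩ := exists_eigen_pair hQ h2 (by omega) h.2 hh2 hε0
      have hs0 : s ≠ 0 := fun h0 => by rw [h0, mul_zero] at hs; exact zero_ne_one hs
      refine ⟨u, v, by rw [hQu]; exact one_ne_zero, by rw [hQv]; exact hε0, huv, by rwa [hQu, hQv, one_mul],
        r * s, r * s, mul_ne_zero r.ne_zero hs0, mul_ne_zero r.ne_zero hs0, Or.inl ⟨?_, ?_⟩⟩
      · rw [hG, hu, smul_smul]
      · rw [hG, hv, smul_smul]
    · obtain ⟨w, hw, hb⟩ := exists_orth_image hQ h2 h5 hgs (mult_spec hne g) hsq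
      have hQg : Q (G *ᵥ w) = μ * Q w := mult_spec hne g w
      have hμ0 : μ ≠ 0 := Units.ne_zero _
      refine ⟨w, G *ᵥ w, hw, by rw [hQg]; exact mul_ne_zero hμ0 hw, hb, fun hs => hgs ?_,
        1, μ, one_ne_zero, hμ0, Or.inr ⟨(one_smul _ _).symm, hsq w⟩⟩
      rw [hQg, mul_left_comm, isSquare_mul_iff hμ0 (mul_ne_zero hw hw)] at hs
      exact hs.2 ⟨Q w, rfl⟩
  have hexc := not_exc_of_two_ne_zero (F := F) (ι := ι) h2
  refine ⟨refl hQ hu * refl hQ hv, ?_, ?_, ?_⟩
  · rw [map_mul, Prod.fst_mul, classHom_refl_fst hQ hexc hu, classHom_refl_fst hQ hexc hv]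
    decide
  · rw [map_mul, Prod.snd_mul]
    intro h
    have hiff : (cl (refl hQ hu)).2 = 1 ↔ (cl (refl hQ hv)).2 = 1 := by
      revert h
      generalize (cl (refl hQ hu)).2 = x
      generalize (cl (refl hQ hv)).2 = y
      revert x y; decide
    rw [classHom_refl_snd, classHom_refl_snd] at hiff
    exact hns ((isSquare_mul_iff hu hv).2 hiff)
  · rw [← map_mul, ← map_mul]
    congr 1
    refine Subtype.ext ?_
    show ((refl hQ hu * refl hQ hv : isometryGroup F Q) : GL ι F) * (g : GL ι F) = (g : GL ι F) * _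
    have hcomm : reflection hQ hu * reflection hQ hv = reflection hQ hv * reflection hQ hu := gl_ext fun x => by
      simp only [Units.val_mul, ← Matrix.mulVec_mulVec, reflection_mulVec, map_sub, map_smul, smul_eq_mul, huv,
        b_symm hQ v u, mul_zero, sub_zero]
      exact sub_right_comm _ _ _
    have hconj : ∀ {a b : ι → F} (ha : Q a ≠ 0) (hb : Q b ≠ 0) (c : F), c ≠ 0 → G *ᵥ a = c • b →
        (g : GL ι F) * reflection hQ ha * (g : GL ι F)⁻¹ = reflection hQ hb := by
      intro a b ha hb c hc hab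
      have hga : Q (G *ᵥ a) ≠ 0 := by rw [mult_spec hne g a]; exact mul_ne_zero (Units.ne_zero _) ha
      have hcb : Q (c • b) ≠ 0 := hab ▸ hga
      rw [conj_reflection_similarity hQ (Units.ne_zero _) (mult_spec hne g) ha hga, ← reflection_smul hQ hc hb hcb]
      exact Units.ext (congrArg (Cfsg.reflectionMatrix Q) hab)
    rw [show ((isoSim Q (refl hQ hu * refl hQ hv) : Sim Q) : GL ι F) = reflection hQ hu * reflection hQ hv from rfl,
      Subgroup.coe_mul, coe_refl hQ, coe_refl hQ]
    refine (mul_inv_eq_iff_eq_mul.1 ?_).symm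
    obtain ⟨r, s, hr, hs, ⟨h1, h3⟩ | ⟨h1, h3⟩⟩ := hperm
    · have e1 := hconj hu hu r hr h1
      have e3 := hconj hv hv s hs h3
      rw [show (g : GL ι F) * (reflection hQ hu * reflection hQ hv) * (g : GL ι F)⁻¹ =
        ((g : GL ι F) * reflection hQ hu * (g : GL ι F)⁻¹) * ((g : GL ι F) * reflection hQ hv * (g : GL ι F)⁻¹) by group,
        e1, e3]
    · have e1 := hconj hu hv r hr h1
      have e3 := hconj hv hu s hs h3
      rw [show (g : GL ι F) * (reflection hQ hu * reflection hQ hv) * (g : GL ι F)⁻¹ =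
        ((g : GL ι F) * reflection hQ hu * (g : GL ι F)⁻¹) * ((g : GL ι F) * reflection hQ hv * (g : GL ι F)⁻¹) by group,
        e1, e3]
      exact hcomm.symm

variable {G : Subgroup (MulAut (POmega F Q))} (hG : ∀ β, β ∈ G ↔ ∃ z : Sim Q, Proper hne k z ∧ conjS Q z = β)
include hG

lemma inn_le : Inn (POmega F Q) ≤ G := by
  rintro _ ⟨x, rfl⟩
  obtain ⟨w, rfl⟩ := QuotientGroup.mk_surjective x
  refine (hG _).2 ⟨isoSim Q w, (proper_isoSim_iff hQ h2 hk h5 _).2 ?_, conjS_omega w⟩
  rw [show cl (w : isometryGroup F Q) = 1 by rw [← MonoidHom.mem_ker, ker_classHom]; exact w.2]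
  rfl

/-- At most two classes when the inner automorphisms have index two. -/
theorem split_le_two (hrel : (Inn (POmega F Q)).relIndex G = 2) :
    splitClassCount G (Inn (POmega F Q)) (conjS Q g) = 1 ∨ splitClassCount G (Inn (POmega F Q)) (conjS Q g) = 2 := by
  haveI := inn_normal (X := POmega F Q)
  rw [splitClassCount_eq_relIndex G _ (inn_le hQ h2 hk h5 hg hg2 hG)]
  refine (Nat.dvd_prime Nat.prime_two).1 ⟨(Inn (POmega F Q)).relIndex (Subgroup.centralizer {conjS Q g} ⊓ G ⊔ Inn (POmega F Q)), ?_⟩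
  rw [mul_comm, Subgroup.relIndex_mul_relIndex _ _ _ le_sup_right (sup_le inf_le_right (inn_le hQ h2 hk h5 hg hg2 hG)), hrel]

/-- Exactly two classes. -/
theorem split_eq_two {z₀ : Sim Q} (hz₀ : Proper hne k z₀) (hz₀' : ¬ IsSquare (mult hne z₀ : F))
    (h : (cl (negIso hQ) = 1 ∧ (Inn (POmega F Q)).relIndex G = 4) ∨
      (cl (negIso hQ) ≠ 1 ∧ Even k ∧ (Inn (POmega F Q)).relIndex G = 2)) :
    splitClassCount G (Inn (POmega F Q)) (conjS Q g) = 2 := by
  haveI := inn_normal (X := POmega F Q)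
  have hle := inn_le hQ h2 hk h5 hg hg2 hG
  rw [splitClassCount_eq_relIndex G _ hle]
  set K := Inn (POmega F Q) with hK
  set L := Subgroup.centralizer {conjS Q g} ⊓ G ⊔ K with hL
  have hLG : L ≤ G := sup_le inf_le_right hle
  have hmul := Subgroup.relIndex_mul_relIndex K L G le_sup_right hLG
  have hor : cl (negIso hQ) = 1 ∨ Even k := h.imp And.left fun h' => h'.2.1
  have hC : ∀ β ∈ Subgroup.centralizer {conjS Q g} ⊓ G, ∃ z : Sim Q, conjS Q z = β ∧ Proper hne k z ∧
      IsSquare (mult hne z : F) := by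
    rintro β ⟨hβ, hβG⟩
    obtain ⟨z, hz, rfl⟩ := (hG β).1 hβG
    exact ⟨z, rfl, hz, isSquare_of_commute hQ h2 hk h5 hg hg2 hor hz (Subgroup.mem_centralizer_singleton_iff.1 hβ)⟩
  have hne1 : L.relIndex G ≠ 1 := by
    rw [Ne, Subgroup.relIndex_eq_one]
    intro hGL
    have hmem : conjS Q z₀ ∈ L := hGL ((hG _).2 ⟨z₀, hz₀, rfl⟩)
    rw [hL, Subgroup.mem_sup_of_normal_right] at hmem
    obtain ⟨_, hc, _, ⟨x, rfl⟩, e⟩ := hmem
    obtain ⟨z, rfl, -, hzs⟩ := hC _ hc
    obtain ⟨w, rfl⟩ := QuotientGroup.mk_surjective x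
    rw [← conjS_omega, ← map_mul] at e
    obtain ⟨u, hu⟩ := exists_scalar_of_conjS_eq hQ h2 hk h5 e.symm
    refine hz₀' ?_
    rw [hu, map_mul, map_mul, mult_scalarSim, show omegaToS Q w = isoSim Q w from rfl, mult_isoSim hQ h2 hk h5, mul_one,
      Units.val_mul, Units.val_pow_eq_pow_val]
    exact (IsSquare.sq (u : F)).mul hzs
  rcases h with ⟨hn, hrel⟩ | ⟨hn, hev, hrel⟩
  · rw [hrel] at hmul
    have hK1 : K.relIndex L ≠ 1 := by
      rw [Ne, Subgroup.relIndex_eq_one]
      intro hLK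
      obtain ⟨c, hc1, hc2, hcomm⟩ := exists_centralising hQ h2 hk h5 hg hg2
      have : conjS Q (isoSim Q c) ∈ K := hLK (Subgroup.mem_sup_left
        ⟨Subgroup.mem_centralizer_singleton_iff.2 hcomm, (hG _).2 ⟨_, (proper_isoSim_iff hQ h2 hk h5 c).2 hc1, rfl⟩⟩)
      rw [hK, conjS_isoSim_mem_inn_iff hQ h2 hk h5, hn, or_self] at this
      exact hc2 (by rw [this]; rfl)
    have hd : L.relIndex G ∣ 2 ^ 2 := ⟨K.relIndex L, by rw [mul_comm]; exact hmul.symm⟩
    obtain ⟨i, hi, e⟩ := (Nat.dvd_prime_pow Nat.prime_two).1 hd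
    rw [e] at hne1 hmul ⊢
    interval_cases i
    · exact absurd rfl hne1
    · rfl
    · exact absurd (by omega) hK1
  · rw [hrel] at hmul
    have hLK : L ≤ K := by
      refine sup_le (fun β hβ => ?_) le_rfl
      obtain ⟨z, rfl, hz, hzs⟩ := hC β hβ
      obtain ⟨r, w, -, e, hp⟩ := exists_iso_of_isSquare hQ h2 hk h5 hzs
      rw [e, map_mul, AutOrthField.conjS_scalarSim, one_mul, hK, conjS_isoSim_mem_inn_iff hQ h2 hk h5]
      refine (by decide : ∀ x n : Multiplicative (ZMod 2) × Multiplicative (ZMod 2), x.1 = 1 → n.1 = 1 → n ≠ 1 →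
        x = 1 ∨ x = n) _ _ (hp.1 hz) (classHom_negIso_fst hQ h2 _ (by rw [hk]; exact even_two_mul k)) hn
    rw [Subgroup.relIndex_eq_one.2 hLK, one_mul] at hmul
    exact hmul

end CfsgLib.AutOrthGraph
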