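import Cfsg.Agent.AutOrthGraph.Split
import Cfsg.Agent.AutOrthMinus.Out

/-! Involutory graph automorphisms of the minus-type groups. -/

set_option autoImplicit false
set_option linter.unusedSectionVars false

namespace CfsgLib.AutOrthGraph.Minus

open Cfsg Cfsg.Geo CfsgLib.OrthGeo CfsgLib.AutOrth CfsgLib.AutOrthMinus CfsgLib.AutOrthGraph Module
open CfsgLib.AutOrthField (Sim scalarSim mult mult_spec mult_eq mult_scalarSim)
open CfsgLib.Classical.Orth (classHom refl classHom_refl_fst exists_q_eq exists_not_isSquare isSquare_mul_of_not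
  not_exc_of_two_ne_zero)
open scoped Matrix MatrixGroups

universe u

/-- What an involutory field automorphism fixes is a square. -/
theorem isSquare_of_fixed {F : Type*} [Field F] [Finite F] (h2 : (2 : F) ≠ 0) {σ : F ≃+* F}
    (hσσ : ∀ z, σ (σ z) = z) (hσ : σ ≠ RingEquiv.refl F) {D : F} (hD : σ D = D) : IsSquare D := by
  obtain ⟨t, ht⟩ : ∃ t, σ t ≠ t := by
    by_contra h
    push Not at h
    exact hσ (RingEquiv.ext h)
  set u := t - σ t with hu
  have hσu : σ u = -u := by rw [hu, map_sub, hσσ, neg_sub]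
  have hu0 : u ≠ 0 := sub_ne_zero.2 (Ne.symm ht)
  let F₀ : Subfield F := RingHom.eqLocusField (σ : F →+* F) (RingHom.id F)
  have hmem : ∀ x, x ∈ F₀ ↔ σ x = x := fun x => Iff.rfl
  have hu2 : u * u ∈ F₀ := (hmem _).2 (by rw [map_mul, hσu, neg_mul_neg])
  have hns : ¬ IsSquare (⟨u * u, hu2⟩ : F₀) := by
    rintro ⟨⟨r, hr⟩, e⟩
    have e' : u * u = r * r := congrArg Subtype.val e
    have hr' := (hmem r).1 hr
    rcases mul_self_eq_mul_self_iff.1 e' with h | h
    · rw [h, hr'] at hσu
      exact hu0 (h ▸ (mul_eq_zero.1 (show (2 : F) * r = 0 by linear_combination hσu)).resolve_left h2)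
    · rw [h, map_neg, hr', neg_neg] at hσu
      refine hu0 ?_
      rw [h, (mul_eq_zero.1 (show (2 : F) * r = 0 by linear_combination -hσu)).resolve_left h2, neg_zero]
  by_cases hd : IsSquare (⟨D, (hmem D).2 hD⟩ : F₀)
  · exact hd.map F₀.subtype
  · obtain ⟨r, hr⟩ := (isSquare_mul_of_not hd hns).map F₀.subtype
    change D * (u * u) = r * r at hr
    exact ⟨r / u, by field_simp; linear_combination hr⟩

variable {F : Type u} [Field F] [Fintype F] {m : ℕ} {a b : F}

section

variable (h2 : (2 : F) ≠ 0) (hm : 3 ≤ m) (hab : ∀ x y : F, x ^ 2 + a * x * y + b * y ^ 2 = 0 → x = 0 ∧ y = 0)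

omit [Fintype F] in
lemma card_idx : Fintype.card (Idx m) = 2 * (m + 1) := by simp; omega

lemma exists_value (a b : F) : ∃ v, quadFormMinus m F a b v ≠ 0 :=
  ⟨Pi.single (.inr 0) 1, by simp [quadFormMinus]⟩

omit [Fintype F] in
lemma det_simMat (α₁ α₂ c : F) (hα : α₁ ^ 2 + a * α₁ * α₂ + b * α₂ ^ 2 = c) :
    (simMat m a b α₁ α₂ c).det = (-c) ^ (m + 1) := by
  have e2 : (Matrix.fromBlocks (0 : Matrix (Fin m) (Fin m) F) 1 1 (0 : Matrix (Fin m) (Fin m) F)).det = (-1) ^ m := by
    have e3 : Matrix.fromBlocks (0 : Matrix (Fin m) (Fin m) F) 1 1 (0 : Matrix (Fin m) (Fin m) F) * Matrix.fromBlocks 1 1 (0 : Matrix (Fin m) (Fin m) F) 1 =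
        Matrix.fromBlocks 0 1 1 1 := by simp [Matrix.fromBlocks_multiply]
    have e4 := congrArg Matrix.det e3
    rw [Matrix.det_mul, Matrix.det_fromBlocks_zero₂₁, Matrix.det_fromBlocks_one₂₂, Matrix.det_one, one_mul,
      mul_one, zero_sub, Matrix.mul_one, Matrix.det_neg, Matrix.det_one, mul_one, Fintype.card_fin] at e4
    exact e4
  have e1 : Matrix.fromBlocks (0 : Matrix (Fin m) (Fin m) F) (c • 1) 1 0 =
      Matrix.fromBlocks (c • 1) 0 0 1 * Matrix.fromBlocks 0 1 1 (0 : Matrix (Fin m) (Fin m) F) := by simp [Matrix.fromBlocks_multiply]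
  rw [simMat, Matrix.det_fromBlocks_zero₂₁, e1, Matrix.det_mul, e2, Matrix.det_fromBlocks_zero₂₁, Matrix.det_smul,
    Matrix.det_one, Matrix.det_fin_two_of, Fintype.card_fin, pow_succ, neg_pow, mul_one, mul_one]
  linear_combination -(c ^ m * (-1) ^ m) * hα

omit [Fintype F] in
lemma det_sigMat (x y : F) : (sigMat m x y).det = y := by
  rw [sigMat, Matrix.det_fromBlocks_zero₂₁, Matrix.det_one, Matrix.det_fin_two_of]
  ring

include h2 hm hab

local notation "hQ" => Classical.Orth.isNondegQF_quadFormMinus m a b hab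

lemma proper_mul (g g' : Sim (quadFormMinus m F a b)) :
    Proper (exists_value a b) (m + 1) (g * g') ↔
      (Proper (exists_value a b) (m + 1) g ↔ Proper (exists_value a b) (m + 1) g') := by
  have hn : 5 ≤ Fintype.card (Idx m) := by rw [card_idx]; omega
  by_cases hg : Proper (exists_value a b) (m + 1) g
  · rw [proper_mul_iff hQ h2 card_idx hn hg]; tauto
  · have e := (det_eq_or hQ h2 card_idx hn g).resolve_left hg
    simp only [hg, false_iff]
    rw [Proper, det_mul_sim hQ h2 card_idx hn, e, map_mul, Units.val_mul, mul_pow, neg_mul, ← mul_neg,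
      mul_right_inj' (pow_ne_zero _ (Units.ne_zero _))]
    constructor
    · intro h h'
      rw [Proper] at h'
      rw [h'] at h
      exact pow_ne_zero (m + 1) (Units.ne_zero (mult (exists_value a b) g'))
        ((mul_eq_zero.1 (show (2 : F) * _ = 0 by linear_combination -h)).resolve_left h2)
    · intro h
      rw [(det_eq_or hQ h2 card_idx hn g').resolve_left h, neg_neg]

lemma exists_nonsquare_sim :
    ∃ S : Sim (quadFormMinus m F a b), ¬ IsSquare (mult (exists_value a b) S : F) ∧
      HasPar a b (S : GL (Idx m) F) (Proper (exists_value a b) (m + 1) S) := by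
  obtain ⟨ε, hε⟩ := exists_not_isSquare (F := F) h2
  have hε0 : ε ≠ 0 := by rintro rfl; exact hε IsSquare.zero
  obtain ⟨α, hα⟩ := exists_q_eq (Classical.Orth.isNondegQF_quadFormMinus 0 a b hab) (by simp) hε0
  have hα' : α (.inr 0) ^ 2 + a * α (.inr 0) * α (.inr 1) + b * α (.inr 1) ^ 2 = ε := by
    simpa [quadFormMinus] using hα
  let S : Sim (quadFormMinus m F a b) :=
    ⟨simGL _ _ ε hε0 hα', ⟨Units.mk0 ε hε0, simGL_similarity _ _ ε hε0 hα'⟩⟩
  have hμ : (mult (exists_value a b) S : F) = ε := mult_eq _ _ _ (simGL_similarity _ _ ε hε0 hα')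
  refine ⟨S, by rwa [hμ], ?_⟩
  have e : Proper (exists_value a b) (m + 1) S ↔ Even (m + 1) := by
    rw [Proper, hμ, show ((S : GL (Idx m) F) : Matrix (Idx m) (Idx m) F) = simMat m a b _ _ ε from rfl,
      det_simMat _ _ _ hα', neg_pow]
    constructor
    · intro h
      by_contra hodd
      rw [(Nat.not_even_iff_odd.1 hodd).neg_one_pow] at h
      exact pow_ne_zero (m + 1) hε0 ((mul_eq_zero.1 (show (2 : F) * _ = 0 by linear_combination -h)).resolve_left h2)
    · intro h
      rw [h.neg_one_pow, one_mul]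
  rw [propext e]
  exact fun K _ f θ hθ => parVal_sim (Classical.Orth.four_mul_sub_sq_ne_zero hab) hθ hab _ _ ε hε0 hα'

lemma hasPar_proper (g : Sim (quadFormMinus m F a b)) :
    HasPar a b (g : GL (Idx m) F) (Proper (exists_value a b) (m + 1) g) := by
  have hn : 5 ≤ Fintype.card (Idx m) := by rw [card_idx]; omega
  have key : ∀ g : Sim (quadFormMinus m F a b), IsSquare (mult (exists_value a b) g : F) →
      HasPar a b (g : GL (Idx m) F) (Proper (exists_value a b) (m + 1) g) := by
    intro g hg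
    obtain ⟨r, h, -, e, hp⟩ := exists_iso_of_isSquare hQ h2 card_idx hn hg
    rw [propext hp, e]
    exact hasPar_scalar_mul h2 (by omega) hab (g := toS m a b h) (hasPar_isometry h2 (by omega) hab h)
  by_cases hg : IsSquare (mult (exists_value a b) g : F)
  · exact key g hg
  obtain ⟨S, hS, hSp⟩ := exists_nonsquare_sim h2 hm hab
  have h1 := key (g * S⁻¹) (by
    rw [map_mul, map_inv, Units.val_mul, Units.val_inv_eq_inv_val]
    exact isSquare_mul_of_not hg fun h' => hS (isSquare_inv.1 h'))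
  have h := HasPar.mul (Classical.Orth.four_mul_sub_sq_ne_zero hab) h1 hSp
  rw [← propext (proper_mul h2 hm hab (g * S⁻¹) S), ← Subgroup.coe_mul, inv_mul_cancel_right] at h
  exact h

theorem mem_inndiag_iff (β : MulAut (POmega F (quadFormMinus m F a b))) :
    β ∈ inndiagPOmegaMinus m F a b ↔
      ∃ z, Proper (exists_value a b) (m + 1) z ∧ conjS (quadFormMinus m F a b) z = β := by
  rw [inndiag_eq h2 (by omega) hab, Subgroup.mem_map]
  have hm' : 2 ≤ m := by omega
  refine exists_congr fun z => and_congr_left fun _ => ?_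
  rw [mem_diagS_iff h2 hm' hab]
  constructor
  · intro h; exact (hasPar_iff_unique h2 hm' hab h (hasPar_proper h2 hm hab z)).1 trivial
  · intro h; rw [← eq_true h]; exact hasPar_proper h2 hm hab z

theorem exists_outer : ∃ z : Sim (quadFormMinus m F a b),
    Proper (exists_value a b) (m + 1) z ∧ ¬ IsSquare (mult (exists_value a b) z : F) := by
  have hn : 5 ≤ Fintype.card (Idx m) := by rw [card_idx]; omega
  obtain ⟨S, hS, -⟩ := exists_nonsquare_sim h2 hm hab
  by_cases hSp : Proper (exists_value a b) (m + 1) S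
  · exact ⟨S, hSp, hS⟩
  have he : quadFormMinus m F a b (Pi.single (.inr 0) 1) ≠ 0 := by simp [quadFormMinus]
  refine ⟨isoSim _ (refl hQ he) * S, (proper_mul h2 hm hab _ _).2 (iff_of_false ?_ hSp), ?_⟩
  · rw [proper_isoSim_iff hQ h2 card_idx hn, classHom_refl_fst]
    exact (by decide : Multiplicative.ofAdd (1 : ZMod 2) ≠ 1)
  · rwa [map_mul, mult_isoSim hQ h2 card_idx hn, one_mul]

/-- An involutory automorphism induced by a semisimilarity has trivial field part. -/
theorem field_trivial {g : GL (Idx m) F} {σ : F ≃+* F} (h : IsSemisimilarityPair (quadFormMinus m F a b) g σ)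
    (h1 : twistP h * twistP h = 1) : σ = RingEquiv.refl F := by
  by_contra hσ
  have hn : 5 ≤ Fintype.card (Idx m) := by rw [card_idx]; omega
  rw [twistP_mul] at h1
  have hs := field_eq_refl hQ hn _ h1
  have hσσ : ∀ z, σ (σ z) = z := fun z => congrArg (fun τ : F ≃+* F => τ z) hs
  set d := a ^ 2 - 4 * b with hd
  have hdns := not_isSquare_disc h2 hab
  have hd0 : d ≠ 0 := fun h0 => hdns (by rw [← hd, h0]; exact IsSquare.zero)
  have hσd : ¬ IsSquare (σ d) := fun h' => hdns ((AutOrthMinus.isSquare_map_iff σ d).1 h')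
  obtain ⟨y, hy⟩ := isSquare_mul_of_not hσd (fun h' : IsSquare d⁻¹ => hdns (isSquare_inv.1 h'))
  have hy2 : y * y * d = σ d := by rw [← hy, mul_assoc, inv_mul_cancel₀ hd0, mul_one]
  have hy0 : y ≠ 0 := by
    rintro rfl
    exact hσd (by rw [← hy2, zero_mul, zero_mul]; exact IsSquare.zero)
  have hl : SigLift a b σ ((σ a - a * y) / 2) y := by
    have h4 : (4 : F) ≠ 0 := by rw [show (4 : F) = 2 * 2 by norm_num]; exact mul_ne_zero h2 h2
    refine ⟨by field_simp; ring, ?_⟩
    have e : σ d = σ a ^ 2 - 4 * σ b := by rw [hd, map_sub, map_pow, map_mul, map_ofNat]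
    field_simp
    linear_combination -hy2 - e
  have hyy : y * σ y = -1 := by
    have e1 : σ y * σ y * σ d = d := by
      have := congrArg σ hy2
      rwa [map_mul, map_mul, hσσ] at this
    have e2 : (y * σ y) * (y * σ y) = 1 := by
      refine mul_right_cancel₀ hd0 ?_
      rw [one_mul]
      linear_combination (σ y * σ y) * hy2 + e1
    rcases mul_self_eq_one_iff.1 e2 with h3 | h3
    swap
    · exact h3
    exfalso
    by_cases hy1 : y = -1
    · refine hdns (isSquare_of_fixed h2 hσσ hσ ?_)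
      rw [← hy2, hy1]; ring
    · set e := 1 + y with he
      have he0 : e ≠ 0 := fun h0 => hy1 (by linear_combination h0)
      have hσe : y * σ e = e := by rw [he, map_add, map_one, mul_add, mul_one, h3, add_comm]
      have hfix : σ (d * (e * e)) = d * (e * e) := by
        rw [map_mul, map_mul, ← hy2]
        linear_combination d * (y * σ e + e) * hσe
      obtain ⟨r, hr⟩ := isSquare_of_fixed h2 hσσ hσ hfix
      exact hdns ⟨r / e, by field_simp; linear_combination hr⟩
  set L : GL (Idx m) F := sigGL _ y hy0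
  obtain ⟨c, hc⟩ := semisim_exists h
  have hsim : ∀ v, quadFormMinus m F a b (((g * L⁻¹ : GL (Idx m) F) : Matrix (Idx m) (Idx m) F) *ᵥ v) =
      (c : F) * quadFormMinus m F a b v := by
    intro v
    obtain ⟨w, rfl⟩ := semi_surjective L σ v
    rw [show quadFormMinus m F a b (semi L σ w) = σ (quadFormMinus m F a b w) from hl.quadForm w, Units.val_mul,
      ← Matrix.mulVec_mulVec, semi, inv_mulVec_cancel]
    exact hc w
  have hdet := det_sq_of_similarity hQ hsim
  rw [Units.val_mul, Matrix.det_mul, card_idx, pow_mul] at hdet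
  have hL : (L : Matrix (Idx m) (Idx m) F).det = y := det_sigMat _ _
  have hLi : ((L⁻¹ : GL (Idx m) F) : Matrix (Idx m) (Idx m) F).det = y⁻¹ := by
    refine eq_inv_of_mul_eq_one_left ?_
    rw [← hL, ← Matrix.det_mul, Units.inv_mul, Matrix.det_one]
  rw [hLi] at hdet
  set δ := (g : Matrix (Idx m) (Idx m) F).det with hδ
  have hWp : IsSemisimilarityPair (quadFormMinus m F a b) (g * mapGL σ g) (RingEquiv.refl F) :=
    hs ▸ isSemisimilarityPair_comp h h
  let W : Sim (quadFormMinus m F a b) := ⟨g * mapGL σ g, hWp⟩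
  have hW1 : conjS _ W = 1 := (twistP_congr _ _ rfl hs.symm).trans h1
  obtain ⟨u, hu⟩ := AutOrthField.exists_scalar_of_conjS_eq_one hQ hn hW1
  have hWproper : Proper (exists_value a b) (m + 1) W := hu ▸ proper_scalar hQ h2 card_idx hn u
  have hWμ : (mult (exists_value a b) W : F) = (c : F) * σ (c : F) := by
    refine mult_eq (exists_value a b) W _ fun v => ?_
    obtain ⟨w, rfl⟩ := semi_surjective (1 : GL (Idx m) F) (σ.trans σ) v
    have e := hc (semi g σ w)
    rw [semi_comp, hc w, map_mul, hσσ, ← mul_assoc] at e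
    have hid : semi (1 : GL (Idx m) F) (σ.trans σ) w = w := by
      funext i; simp [semi, hσσ]
    rw [hid]
    have hgg : semi (g * mapGL σ g) (σ.trans σ) w = ((W : GL (Idx m) F) : Matrix (Idx m) (Idx m) F) *ᵥ w := by
      show _ *ᵥ (fun i => σ (σ (w i))) = _
      simp only [hσσ]
      rfl
    rw [← hgg]
    exact e
  have hWdet : ((W : GL (Idx m) F) : Matrix (Idx m) (Idx m) F).det = δ * σ δ := by
    show ((g * mapGL σ g : GL (Idx m) F) : Matrix (Idx m) (Idx m) F).det = _
    rw [Units.val_mul, Matrix.det_mul, coe_mapGL, ← RingEquiv.mapMatrix_apply, ← RingEquiv.map_det]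
  rw [Proper, hWdet, hWμ] at hWproper
  have hσc : σ (c : F) ≠ 0 := (map_ne_zero_iff _ σ.injective).2 c.ne_zero
  have hcases : δ = (c : F) ^ (m + 1) * y ∨ δ = -((c : F) ^ (m + 1) * y) := by
    refine sq_eq_sq_iff_eq_or_eq_neg.1 ?_
    have := congrArg (· * y ^ 2) hdet
    rw [mul_pow, inv_pow, mul_assoc, inv_mul_cancel₀ (pow_ne_zero 2 hy0), mul_one] at this
    rw [this, ← pow_mul]
    ring
  have hne : ((c : F) * σ (c : F)) ^ (m + 1) ≠ 0 := pow_ne_zero _ (mul_ne_zero c.ne_zero hσc)
  refine hne ((mul_eq_zero.1 (show (2 : F) * _ = 0 from ?_)).resolve_left h2)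
  rcases hcases with e | e <;> rw [e] at hWproper <;>
    simp only [map_neg, map_mul, map_pow] at hWproper <;>
    linear_combination (((c : F) * σ (c : F)) ^ (m + 1)) * hyy - hWproper

end

/-- The splitting statement. -/
theorem split (hodd : Odd (Fintype.card F)) (hm : 3 ≤ m)
    (hab : ∀ x y : F, x ^ 2 + a * x * y + b * y ^ 2 = 0 → x = 0 ∧ y = 0)
    (γ : MulAut (POmega F (quadFormMinus m F a b))) (hγ : IsGraphAutClassPOmegaMinus m a b γ) (hγ2 : orderOf γ = 2) :
    (splitClassCount (inndiagPOmegaMinus m F a b) (Inn (POmega F (quadFormMinus m F a b))) γ = 1 ∨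
      splitClassCount (inndiagPOmegaMinus m F a b) (Inn (POmega F (quadFormMinus m F a b))) γ = 2) ∧
    (¬ (Even m ∧ Fintype.card F % 4 = 1) →
      splitClassCount (inndiagPOmegaMinus m F a b) (Inn (POmega F (quadFormMinus m F a b))) γ = 2) := by
  have h2 := AutOrthMinus.two_ne_zero_of_odd hodd
  have hQ := Classical.Orth.isNondegQF_quadFormMinus m a b hab
  have hn : 5 ≤ Fintype.card (Idx m) := by rw [card_idx]; omega
  obtain ⟨g, σ, h, rfl⟩ := isSemisim_minus hm hab γ
  have hsq : twistP h * twistP h = 1 := by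
    have := pow_orderOf_eq_one (twistP h)
    rwa [hγ2, sq] at this
  obtain rfl := field_trivial h2 hm hab h hsq
  let s : Sim (quadFormMinus m F a b) := ⟨g, h⟩
  have hs : twistP h = conjS (quadFormMinus m F a b) s := rfl
  have hgi : ¬ Proper (exists_value a b) (m + 1) s := fun hp =>
    hγ.2.1 (hs ▸ (mem_inndiag_iff h2 hm hab _).2 ⟨s, hp, rfl⟩)
  obtain ⟨z₀, hz₀, hz₀'⟩ := exists_outer h2 hm hab
  have hG := mem_inndiag_iff h2 hm hab
  rw [hs] at hsq ⊢
  have hm' : 2 ≤ m := by omega
  obtain ⟨hD, hN⟩ := quotient_shapes h2 hm' hab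
  have hrel := relIndex_eq_card (m := m) (a := a) (b := b) (diagS hab) (inndiag_eq h2 hm' hab)
  by_cases hd : Even m ∧ Fintype.card F % 4 = 3
  · obtain ⟨-, ⟨e⟩, -⟩ := hD hd
    rw [Nat.card_congr e.toEquiv, Nat.card_congr Multiplicative.toAdd, Nat.card_zmod] at hrel
    have hn1 : classHom hQ (not_exc_of_two_ne_zero (ι := Idx m) h2) (negIso hQ) = 1 :=
      Prod.ext (cls_negI_fst h2 hm' hab) ((cls_negI_snd h2 hm' hab).2 hd)
    have := split_eq_two hQ h2 card_idx hn hgi hsq hG hz₀ hz₀' (Or.inl ⟨hn1, hrel⟩)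
    exact ⟨Or.inr this, fun _ => this⟩
  · obtain ⟨-, ⟨e⟩, -⟩ := hN hd
    rw [Nat.card_congr e.toEquiv, Nat.card_congr Multiplicative.toAdd, Nat.card_zmod] at hrel
    refine ⟨split_le_two hQ h2 card_idx hn hgi hsq hG hrel, fun hne => ?_⟩
    have hev : Even (m + 1) := by
      refine Nat.even_add_one.2 fun he => ?_
      obtain ⟨j, hj⟩ := hodd
      have : Fintype.card F % 4 = 1 ∨ Fintype.card F % 4 = 3 := by omega
      exact this.elim (fun h1 => hne ⟨he, h1⟩) fun h3 => hd ⟨he, h3⟩
    refine split_eq_two hQ h2 card_idx hn hgi hsq hG hz₀ hz₀' (Or.inr ⟨fun h' => hd ?_, hev, hrel⟩)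
    exact (cls_negI_snd h2 hm' hab).1 (congrArg Prod.snd h')

end CfsgLib.AutOrthGraph.Minus
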