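import Cfsg.Agent.AutOrthGraph.Split
import Cfsg.Agent.AutOrth.PlusOut

/-! Involutory graph automorphisms of the plus-type groups. -/

set_option autoImplicit false
set_option linter.unusedSectionVars false

namespace CfsgLib.AutOrthGraph.Plus

open Cfsg Cfsg.Geo CfsgLib.OrthGeo CfsgLib.AutOrth CfsgLib.AutOrthGraph Module
open CfsgLib.Classical.Orth (classHom exists_not_isSquare not_exc_of_two_ne_zero)
open scoped Matrix MatrixGroups

variable {m : ℕ} {F : Type*} [Field F] [hm : Fact (4 ≤ m)] [Fintype F]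

local notation "ι" => (Fin m ⊕ Fin m)
local notation "QP" => Cfsg.quadFormPlus m F

omit [Fintype F] hm in
lemma card_ii : Fintype.card ι = 2 * m := by simp; omega

local instance : Nonempty ι := ⟨.inl ⟨0, AutOrth.Plus.one_le (m := m)⟩⟩

omit [Fintype F] in
lemma exists_value : ∃ v, QP v ≠ 0 := by
  obtain ⟨v, hv⟩ := AutOrth.Plus.exists_value_one (F := F) (AutOrth.Plus.one_le (m := m))
  exact ⟨v, by rw [hv]; exact one_ne_zero⟩

omit [Fintype F] in
lemma mult_eq_mult (g : quadSimilarityGroup QP) :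
    AutOrthField.mult exists_value g = AutOrth.Plus.mult g :=
  Units.ext (AutOrthField.mult_eq _ _ _ (AutOrth.Plus.mult_spec g))

variable (h2 : (2 : F) ≠ 0)
include h2

lemma proper_dS (c : Fˣ) : Proper exists_value m (AutOrth.Plus.dS c : quadSimilarityGroup QP) := by
  rw [Proper, mult_eq_mult, AutOrth.Plus.mult_dS]
  show (Matrix.fromBlocks (1 : Matrix (Fin m) (Fin m) F) 0 0 ((c : F) • 1)).det = _
  rw [Matrix.det_fromBlocks_zero₂₁, Matrix.det_one, one_mul, Matrix.det_smul, Matrix.det_one, mul_one, Fintype.card_fin]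

lemma proper_iff_par (g : quadSimilarityGroup QP) : Proper exists_value m g ↔ AutOrth.Plus.par g = 1 := by
  have h5 : 5 ≤ Fintype.card ι := AutOrth.Plus.five_le
  have e : g = AutOrth.Plus.dS (AutOrth.Plus.mult g) * isoSim QP (AutOrth.Plus.isoPart g) :=
    (mul_inv_cancel_left _ _).symm
  conv_lhs => rw [e]
  rw [proper_mul_iff AutOrth.Plus.hQ h2 card_ii h5 (proper_dS h2 _),
    proper_isoSim_iff AutOrth.Plus.hQ h2 card_ii h5]
  rfl

lemma classHom_negIso :
    classHom (AutOrth.Plus.hQ (F := F) (m := m)) (not_exc_of_two_ne_zero h2) (negIso AutOrth.Plus.hQ) =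
      (1, sqChar F (-1) ^ m) := by
  rw [← AutOrth.Plus.cls_scal (m := m) (F := F) (-1 : Fˣ)]
  refine (AutOrth.Plus.cls_isoToS (negIso AutOrth.Plus.hQ)).symm.trans (congrArg AutOrth.Plus.cls ?_)
  refine Subtype.ext (gl_ext fun x => ?_)
  rw [AutOrth.Plus.scal_mulVec]
  exact AutOrthField.scalar_mulVec _ _

theorem split (hodd : Odd (Fintype.card F)) (γ : MulAut (POmega F QP)) (hγ : IsSimilarityGraphAutPOmegaPlus m γ)
    (hγ2 : orderOf γ = 2) :
    (splitClassCount (inndiagPOmegaPlus m F) (Inn (POmega F QP)) γ = 1 ∨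
      splitClassCount (inndiagPOmegaPlus m F) (Inn (POmega F QP)) γ = 2) ∧
    (¬ (Odd m ∧ Fintype.card F % 4 = 3) →
      splitClassCount (inndiagPOmegaPlus m F) (Inn (POmega F QP)) γ = 2) := by
  have h5 : 5 ≤ Fintype.card ι := AutOrth.Plus.five_le
  obtain ⟨g, hg, hnp, hind⟩ := hγ
  have hsq : γ * γ = 1 := by
    have := pow_orderOf_eq_one γ
    rwa [hγ2, sq] at this
  obtain rfl := (induced_iff hg γ).1 hind
  have hgi : ¬ Proper exists_value m (⟨g, hg⟩ : quadSimilarityGroup QP) := fun hp =>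
    hnp ((AutOrth.Plus.preserves_iff ⟨g, hg⟩).2 ((proper_iff_par h2 _).1 hp))
  have hG : ∀ β, β ∈ inndiagPOmegaPlus m F ↔ ∃ z, Proper exists_value m z ∧ conjS QP z = β := fun β => by
    rw [AutOrth.Plus.inndiag_eq, Subgroup.mem_map]
    exact exists_congr fun z => and_congr_left fun _ => MonoidHom.mem_ker.trans (proper_iff_par h2 z).symm
  have hidx : ∀ {D : Type} [Group D] (φ : inndiagPOmegaPlus m F →* D), Function.Surjective φ →
      φ.ker = (Inn (POmega F QP)).subgroupOf (inndiagPOmegaPlus m F) →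
      (Inn (POmega F QP)).relIndex (inndiagPOmegaPlus m F) = Nat.card D := by
    intro D _ φ hs hk
    rw [Subgroup.relIndex, ← hk, Subgroup.index_ker, MonoidHom.range_eq_top.2 hs, Subgroup.card_top]
  obtain ⟨h3, h1, he⟩ := AutOrth.Plus.inndiag_quot (m := m) hodd
  by_cases hex : Odd m ∧ Fintype.card F % 4 = 3
  · obtain ⟨φ, hs, hk⟩ := h3 hex
    have hrel := hidx φ hs hk
    rw [Nat.card_congr Multiplicative.toAdd, Nat.card_zmod] at hrel
    exact ⟨split_le_two AutOrth.Plus.hQ h2 card_ii h5 hgi hsq hG hrel, fun h => absurd hex h⟩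
  · have hrel : (Inn (POmega F QP)).relIndex (inndiagPOmegaPlus m F) = 4 := by
      rcases Nat.even_or_odd m with hev | hod
      · obtain ⟨φ, hs, hk⟩ := he hev
        rw [hidx φ hs hk, Nat.card_congr Multiplicative.toAdd, Nat.card_prod, Nat.card_zmod]
      · obtain ⟨φ, hs, hk⟩ := h1 ⟨hod, (AutOrth.Plus.q_mod hodd).resolve_right fun h => hex ⟨hod, h⟩⟩
        rw [hidx φ hs hk, Nat.card_congr Multiplicative.toAdd, Nat.card_zmod]
    have hn : classHom (AutOrth.Plus.hQ (F := F) (m := m)) (not_exc_of_two_ne_zero h2)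
        (negIso AutOrth.Plus.hQ) = 1 := by
      rw [classHom_negIso h2]
      refine Prod.ext rfl ?_
      rcases Nat.even_or_odd m with hev | hod
      · exact AutOrth.Plus.pow_even_eq hev _
      · rw [AutOrth.Plus.pow_odd_eq hod]
        exact AutOrth.Plus.sqChar_neg_one.2 fun h => hex ⟨hod, h⟩
    obtain ⟨ε, hε⟩ := exists_not_isSquare (F := F) h2
    have hε0 : ε ≠ 0 := by rintro rfl; exact hε IsSquare.zero
    have := split_eq_two AutOrth.Plus.hQ h2 card_ii h5 hgi hsq hG (proper_dS h2 (Units.mk0 ε hε0))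
      (by rw [mult_eq_mult, AutOrth.Plus.mult_dS]; exact hε) (Or.inl ⟨hn, hrel⟩)
    exact ⟨Or.inr this, fun _ => this⟩

end CfsgLib.AutOrthGraph.Plus
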